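import Mathlib
import Cfsg.Prelude.Def_JComponents
import Cfsg.Statements.S2944
import Cfsg.Agent.Lib.Helper85.KS12.JSylow

/-!
KS12 project, S2945 (helper68): the glue.  `K ≤ L ∈ jOvergroups T`, `K` subnormal in
`⟨K, J(T)⟩`, `K ∈ jComponentsZero (T^g)`  ⟹  `K` is a `J(T)`-component, from

* `LemX` (helper77's Lemma X, note 2579): a largest elementary abelian 2-subgroup of
  `⟨K, J⟩` normalizes `W_K`;
* the statement of S2944 (for `T^g`).
-/

set_option autoImplicit false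

namespace Cfsg.Agent.Lib.Helper68.KS12

open Cfsg

universe u

/-- Lemma X (helper77): `K` subnormal in `K ⊔ J` with the intrinsic properties of a
`J`-component; then every elementary abelian 2-subgroup `A ≤ J` of largest order among the
elementary abelian 2-subgroups of `K ⊔ J` normalizes `W_K`. -/
def LemX (G : Type u) [Group G] : Prop :=
  ∀ (K J : Subgroup G), Subgroup.closure {g : G | g ∈ K ∧ Odd (orderOf g)} = K →
    (pCoreOf 2 K).relIndex K = 3 → Nat.card ↥(wOf K) = 4 → (∀ w ∈ wOf K, w * w = 1) →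
    (K.subgroupOf (K ⊔ J)).IsSubnormal → ∀ A : Subgroup G, A ≤ J → IsElementaryAbelian 2 A →
    (∀ B : Subgroup G, B ≤ K ⊔ J → IsElementaryAbelian 2 B → Nat.card ↥B ≤ Nat.card ↥A) →
    A ≤ Subgroup.normalizer (wOf K : Set G)

theorem map_conj_map_conj_inv {G : Type u} [Group G] (T : Subgroup G) (g : G) :
    (T.map (MulAut.conj g).toMonoidHom).map (MulAut.conj g⁻¹).toMonoidHom = T := by
  ext x
  constructor
  · rintro ⟨_, ⟨t, ht, rfl⟩, rfl⟩
    have : (MulAut.conj g⁻¹).toMonoidHom ((MulAut.conj g).toMonoidHom t) = t := by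
      simp [MulAut.conj_apply, mul_assoc]
    rw [this]; exact ht
  · intro hx
    refine ⟨_, ⟨x, hx, rfl⟩, ?_⟩
    simp [MulAut.conj_apply, mul_assoc]

/-- `J(T) ≤ N_G(W_K)` from Lemma X, for `K ≤ L`, `T` a Sylow 2-subgroup of `L`. -/
theorem thompson_le_normalizer_wOf {G : Type u} [Group G] [Finite G] (hX : LemX G)
    {T L K : Subgroup G} (hTL : IsSylowTwoIn T L) (hKL : K ≤ L)
    (hodd : Subgroup.closure {g : G | g ∈ K ∧ Odd (orderOf g)} = K)
    (hidx : (pCoreOf 2 K).relIndex K = 3) (hW4 : Nat.card ↥(wOf K) = 4)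
    (hW2 : ∀ w ∈ wOf K, w * w = 1)
    (hKsn : (K.subgroupOf (K ⊔ thompsonSubgroupOf 2 T)).IsSubnormal) :
    thompsonSubgroupOf 2 T ≤ Subgroup.normalizer (wOf K : Set G) := by
  haveI : Fact (Nat.Prime 2) := ⟨Nat.prime_two⟩
  have hJL : thompsonSubgroupOf 2 T ≤ L :=
    (Cfsg.Agent.Lib.Helper11.thompsonSubgroupOf_le 2 T).trans hTL.1
  have hsyl : ¬ 2 ∣ T.relIndex L := by
    intro h2
    exact (Nat.not_even_iff_odd.mpr hTL.2.2) (even_iff_two_dvd.mpr h2)
  conv_lhs => rw [Cfsg.Agent.Lib.Helper11.thompsonSubgroupOf_eq]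
  rw [sSup_le_iff]
  intro A hA
  refine hX K (thompsonSubgroupOf 2 T) hodd hidx hW4 hW2 hKsn A
    (Cfsg.Agent.Lib.Helper11.le_thompsonSubgroupOf hA) hA.2.1 ?_
  intro B hB hBe
  have hBL : B ≤ L := hB.trans (sup_le hKL hJL)
  obtain ⟨d, -, hd⟩ := Cfsg.Agent.Lib.Helper16.BG.rel_sylow_conj L B T hBL
    (Cfsg.Agent.Lib.Helper11.elemAb_isPGroup hBe) hTL.2.1 hsyl
  have hB' : B.map (MulAut.conj d).toMonoidHom ≤ T := by
    rintro x ⟨b, hb, rfl⟩
    exact hd b hb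
  have h1 := hA.2.2 _ hB' (Cfsg.Agent.Lib.Helper11.elemAb_map _ hBe)
  rwa [Subgroup.card_map_of_injective (MulAut.conj d).injective] at h1

/-- S2945 from Lemma X and the statement of S2944. -/
theorem s2945_glue {G : Type u} [Group G] [Finite G] (hX : LemX G)
    (hL : Cfsg.IsCharacteristicTwoType G)
    (hN : ∀ N : Subgroup G, Cfsg.IsTwoLocal N → Group.IsSolvable ↥N)
    (hZ : ∀ S : Sylow 2 G, Subgroup.centralizer (Cfsg.omegaCenterOf (S : Subgroup G) : Set G) ≤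
      Subgroup.normalizer ((S : Subgroup G) : Set G))
    (h2944 : type_of% (@Cfsg.CfsgFrozen.S2944 G _ _ hL hN hZ))
    (T : Subgroup G) (hT : IsPGroup 2 ↥T) (hT1 : T ≠ ⊥) (L : Subgroup G)
    (hLT : L ∈ Cfsg.jOvergroups T) (K : Subgroup G) (hKL : K ≤ L)
    (hKsn : (K.subgroupOf (K ⊔ Cfsg.thompsonSubgroupOf 2 T)).IsSubnormal)
    (g : G) (hKg : K ∈ Cfsg.jComponentsZero (T.map (MulAut.conj g).toMonoidHom)) :
    Cfsg.IsJComponent T K := by
  have hT' : IsPGroup 2 ↥(T.map (MulAut.conj g).toMonoidHom) := hT.map _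
  have hT'1 : T.map (MulAut.conj g).toMonoidHom ≠ ⊥ := by
    intro h
    exact hT1 ((Subgroup.map_eq_bot_iff_of_injective T (MulAut.conj g).injective).mp h)
  obtain ⟨-, h2⟩ := h2944 (T.map (MulAut.conj g).toMonoidHom) hT' hT'1 K hKg
  obtain ⟨hodd, -, hidx, -, hW4, hW2⟩ := hKg.1
  have hJ := thompson_le_normalizer_wOf hX hLT.1 hKL hodd hidx hW4 hW2 hKsn
  have h3 := h2 g⁻¹
  rw [map_conj_map_conj_inv] at h3
  exact h3 hJ

end Cfsg.Agent.Lib.Helper68.KS12
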